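import Cfsg.Agent.H257.El.Top
import Cfsg.Agent.H686.TZ.Alt

/-!
# Tools for sections with alternating groups at the top (helper257)

* `lift_centP` : the centralizer of some element of order `s` (`s` divides the order of the core) covers `N`, if a prime
  `q` dividing `|N|` cannot act nontrivially on the `s`-subgroups of the core
* `index_alt` : `N ≅ A_n` has index dividing 2
* `no_pq` : no element of order `p q` in the symmetric group of degree less than `p + q`
* `alt_of_cycle`
-/

set_option autoImplicit false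

namespace Cfsg.Agent.H257.Cov.CovTop

open Subgroup Cfsg.Agent.H257.El
open Cfsg.Agent.H361.SelfCent (card_modEq_of_perm)

universe u

/-- an element of prime order `q` normalising an `s`-group `P` such that `s ^ b` and `s ^ a` (`a < b`) are different
modulo `q` centralises `P` -/
theorem centralizes {H : Type*} [Group H] [Finite H] {q s : ℕ} (hq : q.Prime) (hs : s.Prime) {y : H}
    (hy : orderOf y = q) {P : Subgroup H} (hP : IsPGroup s P) (hyP : y ∈ normalizer (P : Set H))
    (hord : ∀ a b : ℕ, a < b → s ^ b ∣ Nat.card P → s ^ b % q ≠ s ^ a % q) : ∀ w ∈ P, y * w = w * y := by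
  have hs' : Fact s.Prime := ⟨hs⟩
  have hconj : ∀ w : H, w ∈ P ↔ y * w * y⁻¹ ∈ P := mem_normalizer_iff.1 hyP
  let f : Equiv.Perm P :=
    { toFun := fun w => ⟨y * w * y⁻¹, (hconj w).1 w.2⟩
      invFun := fun w => ⟨y⁻¹ * w * y, (hconj _).2 (by simp [mul_assoc])⟩
      left_inv := fun w => Subtype.ext (by simp [mul_assoc])
      right_inv := fun w => Subtype.ext (by simp [mul_assoc]) }
  have hfk : ∀ k : ℕ, ∀ w : P, (((f ^ k) w : P) : H) = y ^ k * w * (y ^ k)⁻¹ := by
    intro k
    induction k with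
    | zero => intro w; simp
    | succ k ih =>
      intro w
      rw [pow_succ', Equiv.Perm.mul_apply]
      show y * ((f ^ k) w : P) * y⁻¹ = _
      rw [ih, pow_succ']
      group
  have hf : f ^ q = 1 := by
    ext w
    rw [hfk, ← hy, pow_orderOf_eq_one]
    simp
  have h6 := card_modEq_of_perm hq f hf
  have hcomm : ∀ a : P, f a = a ↔ y * (a : H) = a * y := by
    intro a
    constructor
    · intro ha
      have h9 : y * (a : H) * y⁻¹ = a := congrArg Subtype.val ha
      calc y * (a : H) = (y * (a : H) * y⁻¹) * y := by group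
        _ = a * y := by rw [h9]
    · intro ha
      apply Subtype.ext
      change y * (a : H) * y⁻¹ = a
      rw [ha]
      group
  let D : Subgroup P := (centralizer ({y} : Set H)).subgroupOf P
  have hD : Nat.card {a : P // f a = a} = Nat.card D := by
    refine Nat.card_congr (Equiv.subtypeEquivRight fun a => ?_)
    rw [hcomm, mem_subgroupOf, mem_centralizer_singleton_iff]
    exact eq_comm
  obtain ⟨b, hb⟩ := IsPGroup.iff_card.1 hP
  obtain ⟨a, ha⟩ := IsPGroup.iff_card.1 (hP.to_subgroup D)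
  have hle : s ^ a ∣ s ^ b := by
    rw [← ha, ← hb]
    exact D.card_subgroup_dvd_card
  have hab : a ≤ b := (Nat.pow_dvd_pow_iff_le_right hs.one_lt).1 hle
  have hDt : D = ⊤ := by
    rcases hab.lt_or_eq with h | h
    · exfalso
      apply hord a b h (by rw [hb])
      rw [← hb, ← ha, ← hD]
      exact h6
    · rw [← Subgroup.card_eq_iff_eq_top, ha, hb, h]
  intro w hw
  have h7 : (⟨w, hw⟩ : P) ∈ D := by rw [hDt]; trivial
  rw [mem_subgroupOf, mem_centralizer_singleton_iff] at h7
  exact h7.symm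

variable {R : Type*} [Group R] [Finite R] {r : ℕ} {O : Subgroup R} [O.Normal] {N : Subgroup (R ⧸ O)}

/-- a nontrivial normal subgroup of `R / O` contains `N` -/
theorem le_of_normal (h : Top R r O N) {K : Subgroup (R ⧸ O)} (hK : K.Normal) (hKb : K ≠ ⊥) : N ≤ K := by
  have hN := h.normal
  have hsim := h.simple
  have h1 : (K.subgroupOf N).Normal := inferInstance
  rcases hsim.eq_bot_or_eq_top_of_normal _ h1 with h2 | h2
  · exfalso
    have hrK : r ∣ Nat.card K := by
      by_contra hc
      exact hKb (h.bot K hK hc)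
    have h3 : N ⊓ K = ⊥ := by
      rw [subgroupOf_eq_bot, disjoint_iff] at h2
      rw [inf_comm]
      exact h2
    have h4 : N.relIndex K = Nat.card K := by
      rw [← Subgroup.inf_relIndex_right, h3, Subgroup.relIndex_bot_left]
    have h5 : Nat.card K ∣ N.index := by
      rw [← h4]
      exact Subgroup.relIndex_dvd_index_of_normal N K
    apply h.sq'
    rw [← Subgroup.card_mul_index N, pow_two]
    exact mul_dvd_mul h.dvd (hrK.trans h5)
  · rw [← subgroupOf_eq_top]
    exact h2

theorem cent_top (h : Top R r O N) (hna : ¬ ∀ a b : N, a * b = b * a) : centralizer (N : Set (R ⧸ O)) = ⊥ := by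
  have := h.normal
  by_contra hc
  have h1 := le_of_normal h (inferInstance : (centralizer (N : Set (R ⧸ O))).Normal) hc
  exact hna fun a b => Subtype.ext (mem_centralizer_iff.1 (h1 b.2) a a.2)

/-- **the centralizer of some element of order `s` covers `N`** -/
theorem lift_centP (h : Top R r O N) {q s : ℕ} (hq : q.Prime) (hs : s.Prime) (hqR : q ∣ Nat.card R)
    (hqO : ¬ q ∣ Nat.card O) (hsO : s ∣ Nat.card O)
    (hord : ∀ a b : ℕ, a < b → s ^ b ∣ Nat.card O → s ^ b % q ≠ s ^ a % q) :
    ∃ y : R, orderOf y = s ∧ ∀ n ∈ N, ∃ g : R, g * y = y * g ∧ QuotientGroup.mk' O g = n := by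
  have hs' : Fact s.Prime := ⟨hs⟩
  have hq' : Fact q.Prime := ⟨hq⟩
  obtain ⟨S⟩ : Nonempty (Sylow s O) := inferInstance
  have hfr := Sylow.normalizer_sup_eq_top S
  obtain ⟨b, hbq, hbP⟩ := exists_normalizer hqR O hqO S
  set P : Subgroup R := (S : Subgroup O).map O.subtype with hP
  have hPp : IsPGroup s P := S.isPGroup'.map _
  have hPc : Nat.card P = Nat.card S := by
    rw [hP, Subgroup.card_map_of_injective O.subtype_injective]
  have hPO : Nat.card P ∣ Nat.card O := by
    rw [hPc]
    exact Subgroup.card_subgroup_dvd_card _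
  have hsP : s ∣ Nat.card P := by
    rw [hPc]
    exact S.dvd_card_of_dvd_card hsO
  obtain ⟨⟨y, hyP⟩, hy⟩ := exists_prime_orderOf_dvd_card' (G := P) s hsP
  rw [Subgroup.orderOf_mk] at hy
  have hcent := centralizes hq hs hbq hPp hbP (fun a b hab hd => hord a b hab (hd.trans hPO))
  set M := normalizer (P : Set R) with hM
  let f : M →* (R ⧸ O) := (QuotientGroup.mk' O).comp M.subtype
  have hf : Function.Surjective f := by
    intro q
    obtain ⟨x, rfl⟩ := QuotientGroup.mk'_surjective O q
    have hx : x ∈ M ⊔ O := by rw [hfr]; trivial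
    obtain ⟨m, hm, o, ho, rfl⟩ := Subgroup.mem_sup_of_normal_right.1 hx
    refine ⟨⟨m, hm⟩, ?_⟩
    change QuotientGroup.mk' O m = QuotientGroup.mk' O (m * o)
    rw [map_mul, show QuotientGroup.mk' O o = 1 from (QuotientGroup.eq_one_iff o).2 ho, mul_one]
  let K : Subgroup M := (centralizer (P : Set R)).subgroupOf M
  have hKn : K.Normal := by
    refine ⟨fun k hk m => ?_⟩
    rw [mem_subgroupOf, mem_centralizer_iff] at hk ⊢
    intro w hw
    have h1 : (m : R)⁻¹ * w * m ∈ P := by
      have h2 := (mem_normalizer_iff.1 (inv_mem m.2) w).1 hw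
      rwa [inv_inv] at h2
    have h3 := hk _ h1
    change w * ((m : R) * k * (m : R)⁻¹) = (m : R) * k * (m : R)⁻¹ * w
    calc w * ((m : R) * k * (m : R)⁻¹) = m * (((m : R)⁻¹ * w * m) * k) * (m : R)⁻¹ := by group
      _ = m * (k * ((m : R)⁻¹ * w * m)) * (m : R)⁻¹ := by rw [h3]
      _ = _ := by group
  have hKmn : (K.map f).Normal := hKn.map f hf
  have hbK : (⟨b, hbP⟩ : M) ∈ K := by
    rw [mem_subgroupOf, mem_centralizer_iff]
    intro w hw
    exact (hcent w hw).symm
  have hKb : K.map f ≠ ⊥ := by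
    intro hb
    have h1 : f ⟨b, hbP⟩ ∈ K.map f := ⟨_, hbK, rfl⟩
    rw [hb, mem_bot] at h1
    have h2 : b ∈ O := (QuotientGroup.eq_one_iff b).1 h1
    apply hqO
    rw [← hbq, ← Subgroup.orderOf_mk b h2]
    exact _root_.orderOf_dvd_natCard _
  have hle := le_of_normal h hKmn hKb
  refine ⟨y, hy, fun n hn => ?_⟩
  obtain ⟨k, hk, rfl⟩ := hle hn
  rw [SetLike.mem_coe, mem_subgroupOf, mem_centralizer_iff] at hk
  exact ⟨k, (hk y hyP).symm, rfl⟩

/-- element orders of `N` (prime to the order of the core) are orders of elements of the centralizer of an element of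
order `s` -/
theorem exists_commP (h : Top R r O N) {q s : ℕ} (hq : q.Prime) (hs : s.Prime) (hqR : q ∣ Nat.card R)
    (hqO : ¬ q ∣ Nat.card O) (hsO : s ∣ Nat.card O)
    (hord : ∀ a b : ℕ, a < b → s ^ b ∣ Nat.card O → s ^ b % q ≠ s ^ a % q) {k : ℕ} (hk : ∃ n : N, orderOf n = k) :
    ∃ y g : R, orderOf y = s ∧ orderOf g = k ∧ g * y = y * g := by
  obtain ⟨y, hy, hc⟩ := lift_centP h hq hs hqR hqO hsO hord
  obtain ⟨n, hn⟩ := hk
  obtain ⟨g, hg, hgn⟩ := hc n n.2
  obtain ⟨j, hj⟩ := exists_lift (QuotientGroup.mk' O) (z := g) (n := k) (by rw [hgn, Subgroup.orderOf_coe, hn])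
  refine ⟨y, g ^ j, hy, hj, ?_⟩
  have h1 : Commute g y := hg
  exact (h1.pow_left j).eq

/-- the index of an alternating group -/
theorem index_alt {R : Type u} [Group R] [Finite R] {O : Subgroup R} [O.Normal] {N : Subgroup (R ⧸ O)}
    (hT : Top R r O N) (hc : Subgroup.centralizer (N : Set (R ⧸ O)) = ⊥) {n : ℕ} (hn : 7 ≤ n)
    (e : N ≃* alternatingGroup (Fin n)) : N.index ∣ 2 := by
  have hNn := hT.normal
  by_cases h1 : N = ⊤
  · rw [h1, Subgroup.index_top]
    exact one_dvd 2
  · obtain ⟨f⟩ := Cfsg.Agent.H686.TZ.equiv_perm (n := n) hn N e hc h1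
    have h2 : Nontrivial (Fin n) := Fin.nontrivial_iff_two_le.2 (by omega)
    have h3 : (alternatingGroup (Fin n)).index = 2 := alternatingGroup.index_eq_two
    have h4 := (alternatingGroup (Fin n)).index_mul_card
    rw [h3] at h4
    have h5 := N.index_mul_card
    rw [Nat.card_congr f.toEquiv, Nat.card_congr e.toEquiv, ← h4] at h5
    have h6 : 0 < Nat.card (alternatingGroup (Fin n)) := Nat.card_pos
    rw [Nat.eq_of_mul_eq_mul_right h6 h5]

section perm

open Equiv.Perm

theorem alt_of_cycle {n : ℕ} {m : Multiset ℕ} (hs : m.sum ≤ n) (h2 : ∀ a ∈ m, 2 ≤ a)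
    (he : Even (m.sum + Multiset.card m)) : ∃ x : alternatingGroup (Fin n), (x : Equiv.Perm (Fin n)).cycleType = m := by
  obtain ⟨g, hg⟩ := (Equiv.Perm.exists_with_cycleType_iff (α := Fin n) (m := m)).2 ⟨by rwa [Fintype.card_fin], h2⟩
  refine ⟨⟨g, ?_⟩, hg⟩
  rw [mem_alternatingGroup, sign_of_cycleType, hg, he.neg_one_pow]

theorem prime_dvd_lcm {p : ℕ} (hp : p.Prime) (m : Multiset ℕ) (h : p ∣ m.lcm) : ∃ a ∈ m, p ∣ a := by
  induction m using Multiset.induction_on with
  | empty =>
    rw [Multiset.lcm_zero] at h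
    exact absurd (Nat.dvd_one.1 h) hp.one_lt.ne'
  | cons a m ih =>
    rw [Multiset.lcm_cons] at h
    have h1 : p ∣ a * m.lcm := h.trans (Nat.lcm_dvd_mul a m.lcm)
    rcases (hp.dvd_mul).1 h1 with h2 | h2
    · exact ⟨a, Multiset.mem_cons_self _ _, h2⟩
    · obtain ⟨b, hb, hpb⟩ := ih h2
      exact ⟨b, Multiset.mem_cons_of_mem hb, hpb⟩

/-- no element of order `p q` in degree less than `p + q` -/
theorem no_pq {n p q : ℕ} (hp : p.Prime) (hq : q.Prime) (hpq : p ≠ q) (hn : n < p + q) (σ : Equiv.Perm (Fin n)) :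
    orderOf σ ≠ p * q := by
  intro h
  have hl : σ.cycleType.lcm = p * q := by rw [lcm_cycleType, h]
  obtain ⟨a, ha, hpa⟩ := prime_dvd_lcm hp σ.cycleType (by rw [hl]; exact dvd_mul_right _ _)
  obtain ⟨b, hb, hqb⟩ := prime_dvd_lcm hq σ.cycleType (by rw [hl]; exact dvd_mul_left _ _)
  have hsum : σ.cycleType.sum ≤ n := by
    rw [sum_cycleType]
    have := Finset.card_le_univ σ.support
    rwa [Fintype.card_fin] at this
  have hp2 := hp.two_le
  have hq2 := hq.two_le
  have ha0 : 0 < a := by have := two_le_of_mem_cycleType ha; omega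
  have hb0 : 0 < b := by have := two_le_of_mem_cycleType hb; omega
  have hale := Nat.le_of_dvd ha0 hpa
  have hble := Nat.le_of_dvd hb0 hqb
  by_cases hab : a = b
  · subst hab
    have h1 : p * q ∣ a := ((Nat.coprime_primes hp hq).2 hpq).mul_dvd_of_dvd_of_dvd hpa hqb
    have h2 := Nat.le_of_dvd ha0 h1
    have h3 : a ≤ σ.cycleType.sum := Multiset.le_sum_of_mem ha
    have h4 : p + q ≤ p * q := by nlinarith
    omega
  · obtain ⟨t, ht⟩ := Multiset.exists_cons_of_mem ha
    rw [ht] at hb hsum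
    have hb' : b ∈ t := (Multiset.mem_cons.1 hb).resolve_left (Ne.symm hab)
    have h3 : b ≤ t.sum := Multiset.le_sum_of_mem hb'
    rw [Multiset.sum_cons] at hsum
    omega

end perm

end Cfsg.Agent.H257.Cov.CovTop
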