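import Cfsg.Agent.H257.Cov.Tools

/-!
# S2499: the star criterion (helper257)

* `noTwo_of_star` : a class `x` which is incompatible with all the classes `Y i`, and no proper subgroup meets all the
  classes `Y i`
* `noTwo_of_star_orders` : the same with element orders
* `exists_surv_ex` : two primes `r`, `p` dividing `|R|`: the simple group at the top has order divisible by `r p`
-/

set_option autoImplicit false

namespace Cfsg.Agent.H257.Cov

open Subgroup
open Cfsg.Agent.OrdDiv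
open Cfsg.Agent.H278.Cov
open Cfsg.Agent.H257.El

universe u v

/-- **the star criterion** -/
theorem noTwo_of_star {T : Type u} [Group T] {ι : Type v} {x : T} {Y : ι → T} (hx : ∀ i, Inc x (Y i))
    (hY : ∀ R : Subgroup T, R ≠ ⊤ → ∃ i, Av (Y i) R) : NoTwo T := by
  have key : ∀ H K : Subgroup T, H ≠ ⊤ → K ≠ ⊤ → ¬ Av x H → ∃ z : T, Av z H ∧ Av z K := by
    intro H K hH hK h1
    obtain ⟨i, hi⟩ := hY K hK
    exact ⟨Y i, ((hx i) H hH).resolve_left h1, hi⟩
  intro H K hH hK
  by_cases h1 : Av x H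
  · by_cases h2 : Av x K
    · exact ⟨x, h1, h2⟩
    · obtain ⟨z, hz1, hz2⟩ := key K H hK hH h2
      exact ⟨z, hz2, hz1⟩
  · exact key H K hH hK h1

/-- **the star criterion with orders**: `r` is incompatible with all the orders in `L`, and no proper subgroup has
elements of all the orders in `L` -/
theorem noTwo_of_star_orders {T : Type u} [Group T] {r : ℕ} {L : List ℕ} (hr : ∃ x : T, orderOf x = r)
    (hL : ∀ m ∈ L, ∃ y : T, orderOf y = m) (hinc : ∀ m ∈ L, OInc T r m)
    (hno : ∀ R : Subgroup T, R ≠ ⊤ → (∀ m ∈ L, ∃ y ∈ R, orderOf y = m) → False) : NoTwo T := by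
  obtain ⟨x, hx⟩ := hr
  have ho : ∀ a z : T, orderOf (a * z * a⁻¹) = orderOf z := fun a z =>
    orderOf_injective (MulAut.conj a).toMonoidHom (MulAut.conj a).injective z
  refine noTwo_of_star (x := x) (Y := fun i : {m // m ∈ L} => (hL i i.2).choose)
    (fun i => (hinc i i.2).inc hx (hL i i.2).choose_spec) fun R hR => ?_
  by_contra hc
  push Not at hc
  refine hno R hR fun m hm => ?_
  obtain ⟨g, hg⟩ := not_av (hc ⟨m, hm⟩)
  exact ⟨_, hg, (ho _ _).trans (hL m hm).choose_spec⟩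

variable {T : Type u} [Group T] [Finite T]

/-- `r` and the primes `ss` (not adjacent to `r`) divide `|R|`: the simple group at the top of `R` -/
theorem exists_surv_ex (tab : OrderTable.{u}) (known : Known.{u}) {n : ℕ} {l : List (ℕ × ℕ)} {r : ℕ} (ss : List ℕ)
    (hn : Nat.card T = n) (hr : r.Prime) (hss : ∀ s ∈ ss, s.Prime ∧ ∀ z : T, orderOf z ≠ r * s)
    (hchk : (OrdDiv.valid l n && (n % r ^ 2 != 0) && (!ss.isEmpty) && ss.all fun s => El.okPair n l r s) = true)
    {R : Subgroup T} (hR : R ≠ ⊤) (hrR : r ∣ Nat.card R) (hssR : ∀ s ∈ ss, s ∣ Nat.card R) :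
    SitP T n l r R ∧ ∃ (O : Subgroup R) (_ : O.Normal) (N : Subgroup (R ⧸ O)), Top R r O N ∧
      (∀ s ∈ ss, ¬ s ∣ Nat.card O) ∧ (∀ s ∈ ss, ¬ s ∣ N.index) ∧
      (¬ ∀ a b : N, a * b = b * a) ∧ ∃ g ∈ surv n l r ss, Real g N ∧ Nat.card N = ordN g := by
  simp only [Bool.and_eq_true, List.all_eq_true] at hchk
  obtain ⟨⟨⟨h1, h2⟩, h3⟩, h4⟩ := hchk
  have S : SitP T n l r R := sitP_of tab known hn h1 hr h2 hR hrR
  obtain ⟨O, hO, N, h⟩ := S.exists_top
  have hdv : ∀ s ∈ ss, s ∣ Nat.card N := fun s hs =>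
    S.dvd_simple h (hss s hs).1 (hss s hs).2 (h4 s hs) (hssR s hs)
  have hspec : ∀ s ∈ ss, r ≠ s ∧ ¬ s ∣ r - 1 ∧ okPow l r s = true := by
    intro s hs
    have h5 := h4 s hs
    unfold El.okPair at h5
    simp only [Bool.and_eq_true] at h5
    obtain ⟨⟨⟨h6, h7⟩, h8⟩, h9⟩ := h5
    refine ⟨by simpa using h6, fun hd => ?_, h9⟩
    rw [Nat.mod_eq_zero_of_dvd hd] at h7
    exact absurd h7 (by decide)
  have hna : ¬ ∀ a b : N, a * b = b * a := by
    intro hc
    cases ss with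
    | nil => simp at h3
    | cons s ss =>
      have h5 := hdv s (by simp)
      rw [h.card_of_comm hc] at h5
      exact (hspec s (by simp)).1 ((Nat.prime_dvd_prime_iff_eq (hss s (by simp)).1 hr).1 h5).symm
  refine ⟨S, O, hO, N, h, fun s hs => ?_, fun s hs => ?_, hna, ?_⟩
  · exact h.not_dvd_core (hss s hs).1 (hspec s hs).1 (SitP.noR (hss s hs).2) (fun b hb hd =>
      okPow_spec S.valid (hspec s hs).2.2 (hss s hs).1 hb (hd.trans S.dvd_n))
  · exact h.not_dvd_index (hss s hs).1 (hspec s hs).1 (SitP.noR (hss s hs).2) (hspec s hs).2.1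
  · obtain ⟨g, hg, hr1, hr2⟩ := S.exists_surv h hna ss hdv
    exact ⟨g, hg, hr1, hr2⟩

end Cfsg.Agent.H257.Cov
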