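import Mathlib

/-!
# Transitive groups, their normal subgroups and elements with few fixed points (helper257)

* `orb A x` : the orbit of `x` under `A ≤ Perm Ω` (a finset)
* `fix_ge` : if all the orbits of `A` have size `d` and `w` (of prime order `p`) normalises `A`, then `w` has at least
  `(|Ω| / d % p) * (d % p)` fixed points
* `card_orb_of_norm` : the orbits of a subgroup normalised by a transitive group have the same size
-/

set_option autoImplicit false

namespace Cfsg.Agent.H257.Cov.Tr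

open Equiv

section

variable {α : Type*} [DecidableEq α]

/-- an invariant set and the fixed points of a function whose `p`-th iterate is trivial on it -/
theorem card_modEq (F : α → α) (Δ : Finset α) {p : ℕ} (hp : p.Prime)
    (hinv : ∀ x ∈ Δ, F x ∈ Δ) (hF : ∀ x ∈ Δ, F^[p] x = x) :
    Δ.card % p = (Δ.filter fun x => F x = x).card % p := by
  classical
  have : Fact p.Prime := ⟨hp⟩
  let f : Function.End {x // x ∈ Δ} := fun x => ⟨F x.1, hinv x.1 x.2⟩
  have hf : ∀ (n : ℕ) (x : {x // x ∈ Δ}), ((f ^ n) x).1 = F^[n] x.1 := by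
    intro n
    induction n with
    | zero => intro x; rfl
    | succ n ih =>
      intro x
      rw [pow_succ', Function.iterate_succ_apply']
      change F ((f ^ n) x).1 = F (F^[n] x.1)
      rw [ih]
  have h1 := Equiv.Perm.card_fixedPoints_modEq (f := f) (p := p) (n := 1) (by
    funext x
    apply Subtype.ext
    rw [hf, pow_one]
    exact hF x.1 x.2)
  rw [Fintype.card_coe] at h1
  have h2 : Fintype.card (Function.fixedPoints f) = (Δ.filter fun x => F x = x).card := by
    rw [← Fintype.card_coe]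
    refine Fintype.card_congr ⟨fun x => ⟨x.1.1, ?_⟩, fun x => ⟨⟨x.1, (Finset.mem_filter.1 x.2).1⟩, ?_⟩, ?_, ?_⟩
    · rw [Finset.mem_filter]
      exact ⟨x.1.2, congrArg Subtype.val x.2⟩
    · exact Subtype.ext (Finset.mem_filter.1 x.2).2
    · intro x; rfl
    · intro x; rfl
  rw [h2] at h1
  exact h1

end

variable {Ω : Type*} [Fintype Ω] [DecidableEq Ω]

open Classical in
/-- the orbit of `x` -/
noncomputable def orb (A : Subgroup (Perm Ω)) (x : Ω) : Finset Ω := Finset.univ.filter fun y => ∃ a ∈ A, a x = y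

theorem mem_orb {A : Subgroup (Perm Ω)} {x y : Ω} : y ∈ orb A x ↔ ∃ a ∈ A, a x = y := by
  classical
  unfold orb
  rw [Finset.mem_filter]
  exact and_iff_right (Finset.mem_univ _)

theorem self_mem_orb (A : Subgroup (Perm Ω)) (x : Ω) : x ∈ orb A x := mem_orb.2 ⟨1, A.one_mem, rfl⟩

theorem orb_eq {A : Subgroup (Perm Ω)} {x y : Ω} (h : y ∈ orb A x) : orb A y = orb A x := by
  obtain ⟨a, ha, rfl⟩ := mem_orb.1 h
  ext z
  rw [mem_orb, mem_orb]
  constructor
  · rintro ⟨b, hb, rfl⟩
    exact ⟨b * a, A.mul_mem hb ha, rfl⟩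
  · rintro ⟨b, hb, rfl⟩
    refine ⟨b * a⁻¹, A.mul_mem hb (A.inv_mem ha), ?_⟩
    change b (a.symm (a x)) = b x
    rw [Equiv.symm_apply_apply]

theorem orb_pos (A : Subgroup (Perm Ω)) (x : Ω) : 0 < (orb A x).card := Finset.card_pos.2 ⟨_, self_mem_orb A x⟩

/-- orbit and stabiliser -/
theorem card_orb_mul (A : Subgroup (Perm Ω)) (x : Ω) :
    (orb A x).card * Nat.card (MulAction.stabilizer A x) = Nat.card A := by
  have h1 : (MulAction.orbit A x) = (orb A x : Set Ω) := by
    ext q
    rw [Finset.mem_coe, mem_orb, MulAction.mem_orbit_iff]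
    constructor
    · rintro ⟨r, hr⟩
      exact ⟨r.1, r.2, hr⟩
    · rintro ⟨r, hr, hq⟩
      exact ⟨⟨r, hr⟩, hq⟩
  have h3 : Nat.card (MulAction.orbit A x) = (orb A x).card := by
    rw [h1, Nat.card_coe_set_eq, Set.ncard_coe_finset]
  have h4 := Nat.card_congr (MulAction.orbitProdStabilizerEquivGroup A x)
  rw [Nat.card_prod, h3] at h4
  exact h4

theorem image_orb_subset {A : Subgroup (Perm Ω)} {w : Perm Ω} (hn : ∀ a ∈ A, w * a * w⁻¹ ∈ A) (x : Ω) :
    (orb A x).image w ⊆ orb A (w x) := by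
  intro y hy
  obtain ⟨z, hz, rfl⟩ := Finset.mem_image.1 hy
  obtain ⟨a, ha, rfl⟩ := mem_orb.1 hz
  refine mem_orb.2 ⟨_, hn a ha, ?_⟩
  change w (a (w.symm (w x))) = w (a x)
  rw [Equiv.symm_apply_apply]

/-- the orbits of a subgroup normalised by a transitive group -/
theorem card_orb_of_norm {R A : Subgroup (Perm Ω)} (htr : ∀ x y : Ω, ∃ r ∈ R, r x = y)
    (hn : ∀ r ∈ R, ∀ a ∈ A, r * a * r⁻¹ ∈ A) (x y : Ω) : (orb A x).card = (orb A y).card := by
  have key : ∀ x y : Ω, (orb A x).card ≤ (orb A y).card := by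
    intro x y
    obtain ⟨r, hr, rfl⟩ := htr x y
    rw [← Finset.card_image_of_injective (orb A x) r.injective]
    exact Finset.card_le_card (image_orb_subset (hn r hr) x)
  exact le_antisymm (key x y) (key y x)

variable {A : Subgroup (Perm Ω)} {d : ℕ}

theorem image_orb (hd : ∀ x, (orb A x).card = d) {w : Perm Ω} (hn : ∀ a ∈ A, w * a * w⁻¹ ∈ A) (x : Ω) :
    (orb A x).image w = orb A (w x) := by
  apply Finset.eq_of_subset_of_card_le (image_orb_subset hn x)
  rw [Finset.card_image_of_injective _ w.injective, hd, hd]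

open Classical in
/-- the number of orbits -/
theorem card_orbits (hd : ∀ x, (orb A x).card = d) :
    (Finset.univ.image (orb A)).card * d = Fintype.card Ω := by
  have h1 := Finset.card_eq_sum_card_image (orb A) Finset.univ
  rw [Finset.card_univ] at h1
  rw [h1, Finset.sum_const_nat (m := d)]
  intro s hs
  obtain ⟨x, -, rfl⟩ := Finset.mem_image.1 hs
  rw [← hd x]
  congr 1
  ext y
  rw [Finset.mem_filter]
  constructor
  · rintro ⟨-, h2⟩
    rw [← h2]
    exact self_mem_orb A y
  · intro h2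
    exact ⟨Finset.mem_univ _, orb_eq h2⟩

open Classical in
/-- **fixed points of an element normalising a half-transitive group** -/
theorem fix_ge (hd : ∀ x, (orb A x).card = d) (hd0 : 0 < d) {w : Perm Ω} {p : ℕ} (hp : p.Prime) (hw : w ^ p = 1)
    (hn : ∀ a ∈ A, w * a * w⁻¹ ∈ A) :
    (Fintype.card Ω / d % p) * (d % p) ≤ (Finset.univ.filter fun x => w x = x).card := by
  set Q : Finset (Finset Ω) := Finset.univ.image (orb A) with hQ
  have hcQ : Q.card = Fintype.card Ω / d := by
    rw [← card_orbits hd, Nat.mul_div_cancel _ hd0]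
  have hmem : ∀ s, s ∈ Q ↔ ∃ x, orb A x = s := fun s => by
    rw [hQ, Finset.mem_image]
    simp
  have hQinv : ∀ s ∈ Q, Finset.image w s ∈ Q := by
    intro s hs
    obtain ⟨x, rfl⟩ := (hmem s).1 hs
    rw [image_orb hd hn]
    exact (hmem _).2 ⟨_, rfl⟩
  have hiter : ∀ (n : ℕ) (s : Finset Ω), (Finset.image w)^[n] s = s.image (w ^ n : Perm Ω) := by
    intro n
    induction n with
    | zero => intro s; simp
    | succ n ih =>
      intro s
      rw [Function.iterate_succ_apply', ih, Finset.image_image, pow_succ']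
      rfl
  have h1 := card_modEq (Finset.image w) Q hp hQinv (fun s _ => by
    rw [hiter, hw]
    simp)
  set Qf := Q.filter fun s => Finset.image w s = s with hQf
  have h2 : Q.card % p ≤ Qf.card := by
    rw [h1]
    exact Nat.mod_le _ _
  have hwit : ∀ n : ℕ, (w : Ω → Ω)^[n] = (w ^ n : Perm Ω) := by
    intro n
    induction n with
    | zero => rfl
    | succ n ih =>
      funext x
      rw [Function.iterate_succ_apply', ih, pow_succ', Perm.mul_apply]
  have h3 : ∀ s ∈ Qf, d % p ≤ (s.filter fun x => w x = x).card := by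
    intro s hs
    rw [hQf, Finset.mem_filter] at hs
    obtain ⟨x, hx⟩ := (hmem s).1 hs.1
    have h4 := card_modEq (w : Ω → Ω) s hp (fun y hy => by
      rw [← hs.2]
      exact Finset.mem_image_of_mem _ hy) (fun y _ => by
      rw [hwit, hw]
      rfl)
    have h5 : s.card = d := by rw [← hx, hd]
    rw [h5] at h4
    rw [h4]
    exact Nat.mod_le _ _
  have h6 : (Qf.biUnion fun s => s.filter fun x => w x = x).card = ∑ s ∈ Qf, (s.filter fun x => w x = x).card := by
    apply Finset.card_biUnion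
    intro s hs t ht hst
    change Disjoint (s.filter fun x => w x = x) (t.filter fun x => w x = x)
    rw [Finset.disjoint_left]
    intro x hx hy
    apply hst
    obtain ⟨a, ha⟩ := (hmem s).1 (Finset.mem_filter.1 hs).1
    obtain ⟨b, hb⟩ := (hmem t).1 (Finset.mem_filter.1 ht).1
    have hxs := (Finset.mem_filter.1 hx).1
    have hxt := (Finset.mem_filter.1 hy).1
    rw [← ha] at hxs
    rw [← hb] at hxt
    rw [← ha, ← hb, ← orb_eq hxs, ← orb_eq hxt]
  have h7 : (Qf.biUnion fun s => s.filter fun x => w x = x) ⊆ Finset.univ.filter fun x => w x = x := by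
    intro x hx
    obtain ⟨s, -, hs⟩ := Finset.mem_biUnion.1 hx
    rw [Finset.mem_filter]
    exact ⟨Finset.mem_univ _, (Finset.mem_filter.1 hs).2⟩
  rw [← hcQ]
  calc Q.card % p * (d % p) ≤ Qf.card * (d % p) := Nat.mul_le_mul_right _ h2
    _ ≤ ∑ s ∈ Qf, (s.filter fun x => w x = x).card := by
        rw [← smul_eq_mul]
        exact Finset.card_nsmul_le_sum _ _ _ h3
    _ = _ := h6.symm
    _ ≤ _ := Finset.card_le_card h7

theorem eq_bot_of_card_orb (hd : ∀ x, (orb A x).card = 1) : A = ⊥ := by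
  rw [Subgroup.eq_bot_iff_forall]
  intro a ha
  ext x
  have h1 : a x ∈ orb A x := mem_orb.2 ⟨a, ha, rfl⟩
  obtain ⟨y, hy⟩ := Finset.card_eq_one.1 (hd x)
  have h2 := self_mem_orb A x
  rw [hy, Finset.mem_singleton] at h1 h2
  rw [h1, Perm.one_apply]
  exact h2.symm

/-- a nontrivial solvable normal subgroup contains a nontrivial abelian normal subgroup -/
theorem exists_abelian_normal {G : Type*} [Group G] (N : Subgroup G) [N.Normal] [Group.IsSolvable N] (hN : N ≠ ⊥) :
    ∃ A : Subgroup G, A.Normal ∧ A ≠ ⊥ ∧ A ≤ N ∧ ∀ x ∈ A, ∀ y ∈ A, x * y = y * x := by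
  classical
  have hex : ∃ n, derivedSeries N n = ⊥ := Group.IsSolvable.solvable
  obtain ⟨n, hn, hmin⟩ : ∃ n, derivedSeries N n = ⊥ ∧ ∀ m < n, derivedSeries N m ≠ ⊥ :=
    ⟨Nat.find hex, Nat.find_spec hex, fun m hm => Nat.find_min hex hm⟩
  cases n with
  | zero =>
    exfalso
    apply hN
    rw [derivedSeries_zero] at hn
    rw [Subgroup.eq_bot_iff_forall]
    intro x hx
    have h1 : (⟨x, hx⟩ : N) ∈ (⊤ : Subgroup N) := Subgroup.mem_top _
    rw [hn, Subgroup.mem_bot] at h1
    exact congrArg Subtype.val h1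
  | succ k =>
    have h1 := hmin k (Nat.lt_succ_self k)
    refine ⟨(derivedSeries N k).map N.subtype, inferInstance, ?_, ?_, ?_⟩
    · intro h2
      apply h1
      rwa [Subgroup.map_eq_bot_iff_of_injective _ N.subtype_injective] at h2
    · rintro _ ⟨x, -, rfl⟩
      exact x.2
    · rw [derivedSeries_succ, Subgroup.commutator_eq_bot_iff_le_centralizer] at hn
      rintro _ ⟨x, hx, rfl⟩ _ ⟨y, hy, rfl⟩
      have h2 := (Subgroup.mem_centralizer_iff.1 (hn hx)) y hy
      rw [← map_mul, ← h2, map_mul]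

/-- if `k ∣ |B|` for all nontrivial normal subgroups `B` (`k` divisible by two primes) then `G` has no nontrivial
solvable normal subgroup -/
theorem no_solvable {G : Type*} [Group G] [Finite G] {p q : ℕ} (hp : p.Prime) (hq : q.Prime) (hpq : p ≠ q)
    (h : ∀ B : Subgroup G, B.Normal → B ≠ ⊥ → p ∣ Nat.card B ∧ q ∣ Nat.card B) (N : Subgroup G) [N.Normal]
    [Group.IsSolvable N] : N = ⊥ := by
  by_contra hN
  obtain ⟨A, hAn, hA, -, hAc⟩ := exists_abelian_normal N hN
  let D : Subgroup G :=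
    { carrier := {a | a ∈ A ∧ a ^ p = 1}
      one_mem' := ⟨A.one_mem, one_pow _⟩
      mul_mem' := by
        rintro a b ⟨ha, ha'⟩ ⟨hb, hb'⟩
        refine ⟨A.mul_mem ha hb, ?_⟩
        have : Commute a b := hAc a ha b hb
        rw [this.mul_pow, ha', hb', one_mul]
      inv_mem' := by
        rintro a ⟨ha, ha'⟩
        exact ⟨A.inv_mem ha, by rw [inv_pow, ha', inv_one]⟩ }
  have hDn : D.Normal := ⟨by
    rintro a ⟨ha, ha'⟩ g
    exact ⟨hAn.conj_mem a ha g, by rw [conj_pow, ha']; group⟩⟩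
  have : Fact p.Prime := ⟨hp⟩
  have : Fact q.Prime := ⟨hq⟩
  obtain ⟨a, ha⟩ := exists_prime_orderOf_dvd_card' (G := A) p (h A hAn hA).1
  have hD : D ≠ ⊥ := by
    intro hb
    have h1 : a.1 ∈ D := ⟨a.2, by rw [← Subgroup.orderOf_coe] at ha; rw [← ha, pow_orderOf_eq_one]⟩
    rw [hb, Subgroup.mem_bot] at h1
    rw [← Subgroup.orderOf_coe, h1, orderOf_one] at ha
    exact hp.one_lt.ne ha
  obtain ⟨b, hb⟩ := exists_prime_orderOf_dvd_card' (G := D) q (h D hDn hD).2
  rw [← Subgroup.orderOf_coe] at hb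
  have h2 : orderOf b.1 ∣ p := orderOf_dvd_of_pow_eq_one b.2.2
  rw [hb] at h2
  exact hpq ((Nat.prime_dvd_prime_iff_eq hq hp).1 h2).symm

end Cfsg.Agent.H257.Cov.Tr
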